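import Cfsg.Agent.WielandtFormula.Linear
import Cfsg.Agent.CoprimeAction.Action

/-!
# Wielandt's fixed point formula for a Frobenius group acting coprimely on a solvable group
-/

set_option autoImplicit false
set_option linter.style.haveILetI false

namespace CfsgLib.WielandtFP

universe u v

variable {G : Type u} [Group G]

/-- The fixed points of a subgroup of the acting group. -/
def fixS {H : Type v} [Group H] (φ : G →* MulAut H) (S : Subgroup G) : Subgroup H where
  carrier := {h | ∀ s ∈ S, φ s h = h}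
  one_mem' s _ := map_one (φ s)
  mul_mem' {a b} ha hb s hs := by rw [map_mul, ha s hs, hb s hs]
  inv_mem' {a} ha s hs := by rw [map_inv, ha s hs]

/-- The statement of the formula. -/
def Holds {H : Type v} [Group H] (φ : G →* MulAut H) (U E : Subgroup G) : Prop :=
  Nat.card (fixS φ ⊤) ^ Nat.card E * Nat.card H = Nat.card (fixS φ E) ^ Nat.card E * Nat.card (fixS φ U)

theorem holds_elementary [Finite G] {H : Type v} [CommGroup H] [Finite H] (p : ℕ) [Fact p.Prime]
    (hexp : ∀ h : H, h ^ p = 1) (hG : ¬ p ∣ Nat.card G) (φ : G →* MulAut H) (U E : Subgroup G) [U.Normal]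
    (hinf : U ⊓ E = ⊥) (hsup : U ⊔ E = ⊤) (hfpf : ∀ e ∈ E, e ≠ 1 → ∀ u ∈ U, e * u = u * e → u = 1) :
    Holds φ U E := by
  classical
  have hz : ∀ x : Additive H, p • x = 0 := fun x => by
    show Additive.ofMul (x.toMul ^ p) = 0
    rw [hexp]; rfl
  letI : Module (ZMod p) (Additive H) := AddCommGroup.zmodModule (n := p) hz
  haveI : Module.Finite (ZMod p) (Additive H) := Module.Finite.of_finite
  obtain ⟨d, ⟨β⟩⟩ : ∃ d : ℕ, Nonempty (Additive H ≃ₗ[ZMod p] (Fin d → ZMod p)) :=
    ⟨_, ⟨(Module.finBasisOfFinrankEq (ZMod p) (Additive H) rfl).equivFun⟩⟩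
  let L : G → ((Fin d → ZMod p) →ₗ[ZMod p] (Fin d → ZMod p)) := fun g =>
    β.conj (AddMonoidHom.toZModLinearMap p (MonoidHom.toAdditive (φ g).toMonoidHom))
  have hL : ∀ g (x : H), L g (β (Additive.ofMul x)) = β (Additive.ofMul (φ g x)) := fun g x => by
    simp only [L, LinearEquiv.conj_apply_apply, LinearEquiv.symm_apply_apply]
    rfl
  let ρ : G →* Matrix (Fin d) (Fin d) (ZMod p) :=
    { toFun := fun g => LinearMap.toMatrix' (L g)
      map_one' := by
        rw [show L 1 = LinearMap.id from LinearMap.ext fun v => by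
          obtain ⟨x, rfl⟩ := β.surjective v
          rw [show x = Additive.ofMul x.toMul from rfl, hL, map_one]; rfl, LinearMap.toMatrix'_id]
      map_mul' := fun g h => by
        rw [← LinearMap.toMatrix'_comp]
        congr 1
        refine LinearMap.ext fun v => ?_
        obtain ⟨x, rfl⟩ := β.surjective v
        rw [show x = Additive.ofMul x.toMul from rfl, LinearMap.comp_apply, hL, hL, hL, map_mul]
        rfl }
  have hρ : ∀ g (x : H), Matrix.mulVec (ρ g) (β (Additive.ofMul x)) = β (Additive.ofMul (φ g x)) := fun g x => by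
    rw [← hL]
    exact LinearMap.congr_fun (Matrix.toLin'_toMatrix' (L g)) _
  have hcard : ∀ S : Subgroup G,
      Nat.card (fixS φ S) = Nat.card {v : Fin d → ZMod p // ∀ g ∈ S, Matrix.mulVec (ρ g) v = v} := fun S =>
    Nat.card_congr ((Additive.ofMul.trans β.toEquiv).subtypeEquiv fun x => by
      refine ⟨fun h g hg => ?_, fun h g hg => ?_⟩
      · exact (hρ g x).trans (congrArg (fun y => β (Additive.ofMul y)) (h g hg))
      · exact Additive.ofMul.injective (β.injective ((hρ g x).symm.trans (h g hg))))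
  have hH : Nat.card H = p ^ d := by
    rw [Nat.card_congr (Additive.ofMul.trans β.toEquiv), Nat.card_fun, Nat.card_zmod, Nat.card_eq_fintype_card,
      Fintype.card_fin]
  rw [Holds, hcard, hcard, hcard, hH]
  exact fixed_formula hG U E hinf hsup hfpf ρ

theorem card_fix_eq [Finite G] {H : Type v} [Group H] [Finite H] {Q : Type v} [Group Q] (φ : G →* MulAut H)
    (ψ : G →* MulAut Q) (π : H →* Q) (hπ : Function.Surjective π) (heq : ∀ g h, π (φ g h) = ψ g (π h))
    (hcop : (Nat.card G).Coprime (Nat.card H)) (hsolv : Group.IsSolvable H) (χ : G →* MulAut π.ker)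
    (hχ : ∀ g (k : π.ker), ((χ g k : π.ker) : H) = φ g k) (S : Subgroup G) :
    Nat.card (fixS φ S) = Nat.card (fixS χ S) * Nat.card (fixS ψ S) := by
  let f : fixS φ S →* fixS ψ S :=
    { toFun := fun h => ⟨π h, fun s hs => by rw [← heq, h.2 s hs]⟩
      map_one' := Subtype.ext (map_one π)
      map_mul' := fun _ _ => Subtype.ext (map_mul π _ _) }
  have hf : Function.Surjective f := by
    rintro ⟨q, hq⟩
    obtain ⟨k, rfl⟩ := hπ q
    obtain ⟨n, hn, hfix⟩ := CfsgLib.CoprimeAction.exists_fixed_of_coset (φ.comp S.subtype) (N := π.ker)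
      (fun a n hn => by rw [MonoidHom.mem_ker] at hn ⊢; rw [MonoidHom.comp_apply, heq, hn, map_one])
      ((hcop.coprime_dvd_left S.card_subgroup_dvd_card).coprime_dvd_right π.ker.card_subgroup_dvd_card)
      (Or.inr inferInstance) (k := k) (fun a => by
        rw [MonoidHom.mem_ker, map_mul, map_inv, MonoidHom.comp_apply, heq, Subgroup.coe_subtype, hq _ a.2, mul_inv_cancel])
    exact ⟨⟨n * k, fun s hs => hfix ⟨s, hs⟩⟩,
      Subtype.ext (show π (n * k) = π k by rw [map_mul, MonoidHom.mem_ker.1 hn, one_mul])⟩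
  have hker : Nat.card f.ker = Nat.card (fixS χ S) :=
    Nat.card_congr
      { toFun := fun x => ⟨⟨((x : fixS φ S) : H), congrArg Subtype.val x.2⟩, fun s hs =>
          Subtype.ext ((hχ _ _).trans ((x : fixS φ S).2 s hs))⟩
        invFun := fun y => ⟨⟨((y : π.ker) : H), fun s hs => (hχ _ _).symm.trans (congrArg Subtype.val (y.2 s hs))⟩,
          Subtype.ext (y : π.ker).2⟩
        left_inv := fun _ => rfl
        right_inv := fun _ => rfl }
  rw [Subgroup.card_eq_card_quotient_mul_card_subgroup f.ker,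
    Nat.card_congr (QuotientGroup.quotientKerEquivOfSurjective f hf).toEquiv, hker, mul_comm]

theorem holds_of_solvable [Finite G] (U E : Subgroup G) [U.Normal]
    (hinf : U ⊓ E = ⊥) (hsup : U ⊔ E = ⊤) (hfpf : ∀ e ∈ E, e ≠ 1 → ∀ u ∈ U, e * u = u * e → u = 1) :
    ∀ (n : ℕ) (H : Type v) [Group H] [Finite H] [Group.IsSolvable H], Nat.card H = n →
      (Nat.card G).Coprime (Nat.card H) → ∀ φ : G →* MulAut H, Holds φ U E := by
  intro n
  induction n using Nat.strong_induction_on with
  | _ n ih =>
  intro H _ _ _ hn hcop φ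
  subst hn
  classical
  rcases subsingleton_or_nontrivial H with hs | hnt
  · have h1 : ∀ S : Subgroup G, Nat.card (fixS φ S) = 1 := fun S => Nat.card_unique
    rw [Holds, h1, h1, h1, Nat.card_of_subsingleton (1 : H)]
  by_cases hex : ∃ N : Subgroup H, N.Normal ∧ N ≠ ⊥ ∧ N ≠ ⊤ ∧ ∀ g, ∀ x ∈ N, φ g x ∈ N
  · obtain ⟨N, hN, hNb, hNt, hinv⟩ := hex
    have hmap : ∀ g, N.map (↑(φ g) : H →* H) = N := fun g => by
      refine Subgroup.eq_of_le_of_card_ge (fun _ ⟨x, hx, h⟩ => h ▸ hinv g x hx) ?_
      rw [Subgroup.card_map_of_injective (φ g).injective]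
    let ψ : G →* MulAut (H ⧸ N) :=
      { toFun := fun g => QuotientGroup.congr N N (φ g) (hmap g)
        map_one' := MulEquiv.ext fun q => by
          induction q using QuotientGroup.induction_on with
          | _ h => rw [QuotientGroup.congr_mk, map_one]; rfl
        map_mul' := fun a b => MulEquiv.ext fun q => by
          induction q using QuotientGroup.induction_on with
          | _ h => rw [QuotientGroup.congr_mk, map_mul]; rfl }
    obtain ⟨χ, hχ⟩ : ∃ χ : G →* MulAut (QuotientGroup.mk' N).ker,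
        ∀ g (k : (QuotientGroup.mk' N).ker), ((χ g k : (QuotientGroup.mk' N).ker) : H) = φ g k := by
      have hinv' : ∀ g, ∀ x ∈ (QuotientGroup.mk' N).ker, φ g x ∈ (QuotientGroup.mk' N).ker := by
        rw [QuotientGroup.ker_mk']; exact hinv
      exact ⟨{ toFun := fun g =>
          { toFun := fun k => ⟨φ g k, hinv' g k k.2⟩
            invFun := fun k => ⟨φ g⁻¹ k, hinv' g⁻¹ k k.2⟩
            left_inv := fun k => Subtype.ext (by simp [map_inv])
            right_inv := fun k => Subtype.ext (by simp [map_inv])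
            map_mul' := fun a b => Subtype.ext (map_mul (φ g) _ _) }
               map_one' := MulEquiv.ext fun k => Subtype.ext (by simp)
               map_mul' := fun a b => MulEquiv.ext fun k => Subtype.ext (by simp) }, fun _ _ => rfl⟩
    have hsplit := fun S => card_fix_eq φ ψ (QuotientGroup.mk' N) (QuotientGroup.mk'_surjective N)
      (fun g h => (QuotientGroup.congr_mk N N (φ g) (hmap g) h).symm) hcop inferInstance χ hχ S
    have hcard := Subgroup.card_eq_card_quotient_mul_card_subgroup (QuotientGroup.mk' N).ker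
    rw [QuotientGroup.ker_mk'] at hcard
    have h1 : 1 < Nat.card N := (Subgroup.one_lt_card_iff_ne_bot N).2 hNb
    have h2 : 1 < Nat.card (H ⧸ N) := by
      rw [← Subgroup.index_eq_card]
      exact (Nat.one_lt_iff_ne_zero_and_ne_one).2 ⟨Subgroup.index_ne_zero_of_finite,
        fun h => hNt (Subgroup.index_eq_one.1 h)⟩
    have hNker : Nat.card (QuotientGroup.mk' N).ker = Nat.card N := by rw [QuotientGroup.ker_mk']
    have hq := ih (Nat.card (H ⧸ N)) (by rw [hcard]; exact lt_mul_of_one_lt_right Nat.card_pos h1) (H ⧸ N) rfl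
      (hcop.coprime_dvd_right (Subgroup.card_quotient_dvd_card N)) ψ
    have hk := ih (Nat.card (QuotientGroup.mk' N).ker)
      (by rw [hNker, hcard]; exact lt_mul_of_one_lt_left Nat.card_pos h2) (QuotientGroup.mk' N).ker rfl
      (hcop.coprime_dvd_right (Subgroup.card_subgroup_dvd_card _)) χ
    rw [Holds] at hq hk ⊢
    rw [hsplit, hsplit, hsplit, hcard, ← hNker, mul_pow, mul_pow]
    calc _ = (Nat.card (fixS χ ⊤) ^ Nat.card E * Nat.card (QuotientGroup.mk' N).ker) *
          (Nat.card (fixS ψ ⊤) ^ Nat.card E * Nat.card (H ⧸ N)) := by ring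
      _ = _ := by rw [hk, hq]; ring
  push Not at hex
  have hcomm : commutator H = ⊥ := by
    by_contra h
    obtain ⟨g, x, hx, hgx⟩ := hex _ inferInstance h (Group.IsSolvable.commutator_lt_top_of_nontrivial H).ne
    exact hgx ((Subgroup.characteristic_iff_le_comap.1 inferInstance (φ g)) hx)
  letI : CommGroup H :=
    { (inferInstance : Group H) with
      mul_comm := fun a b => commutatorElement_eq_one_iff_mul_comm.1 (Subgroup.mem_bot.1
        (hcomm ▸ Subgroup.commutator_mem_commutator (Subgroup.mem_top a) (Subgroup.mem_top b))) }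
  obtain ⟨p, hp, hpH⟩ := Nat.exists_prime_and_dvd (Finite.one_lt_card (α := H)).ne'
  haveI := Fact.mk hp
  obtain ⟨z, hz⟩ := exists_prime_orderOf_dvd_card' p hpH
  have hexp : ∀ h : H, h ^ p = 1 := by
    by_contra hne
    push Not at hne
    obtain ⟨h₀, hh₀⟩ := hne
    obtain ⟨g, x, hx, hgx⟩ := hex (powMonoidHom p : H →* H).ker inferInstance
      (fun h => hp.ne_one (by
        have : z ∈ (powMonoidHom p : H →* H).ker := by
          rw [MonoidHom.mem_ker, powMonoidHom_apply, ← hz, pow_orderOf_eq_one]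
        rw [h, Subgroup.mem_bot] at this
        rw [← hz, this, orderOf_one]))
      (fun h => hh₀ (MonoidHom.mem_ker.1 (h ▸ Subgroup.mem_top h₀ : h₀ ∈ (powMonoidHom p : H →* H).ker)))
    refine hgx ?_
    rw [MonoidHom.mem_ker, powMonoidHom_apply] at hx ⊢
    rw [← map_pow, hx, map_one]
  exact holds_elementary p hexp (fun h => hp.ne_one (Nat.eq_one_of_dvd_coprimes hcop h hpH)) φ U E hinf hsup hfpf

end CfsgLib.WielandtFP
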