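import Mathlib

/-!
# Fixed points of a Frobenius group acting coprimely on a vector space over a prime field

The representation is lifted to `ZMod (p ^ N)`, where averaging idempotents have rank equal to trace.
-/

set_option autoImplicit false
set_option linter.style.haveILetI false

namespace CfsgLib.WielandtFP

open Matrix

variable {p N d : ℕ}

/-- Reduction modulo `p`. -/
def redHom (p N : ℕ) (hN : N ≠ 0) : ZMod (p ^ N) →+* ZMod p := ZMod.castHom (dvd_pow_self p hN) (ZMod p)

theorem redHom_eq_zero (hN : N ≠ 0) [Fact p.Prime] (x : ZMod (p ^ N)) :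
    redHom p N hN x = 0 ↔ (p : ZMod (p ^ N)) ∣ x := by
  constructor
  · intro h
    haveI : NeZero (p ^ N) := ⟨pow_ne_zero N (Fact.out : p.Prime).ne_zero⟩
    rw [← ZMod.natCast_zmod_val x, map_natCast, ZMod.natCast_eq_zero_iff] at h
    obtain ⟨c, hc⟩ := h
    exact ⟨(c : ZMod (p ^ N)), by rw [← ZMod.natCast_zmod_val x, hc, Nat.cast_mul]⟩
  · rintro ⟨c, rfl⟩
    rw [map_mul, map_natCast, ZMod.natCast_self, zero_mul]

theorem isUnit_of_redHom (hN : N ≠ 0) [Fact p.Prime] {x : ZMod (p ^ N)} (hx : redHom p N hN x ≠ 0) : IsUnit x := by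
  haveI : NeZero (p ^ N) := ⟨pow_ne_zero N (Fact.out : p.Prime).ne_zero⟩
  rw [← ZMod.natCast_zmod_val x] at hx ⊢
  rw [map_natCast, Ne, ZMod.natCast_eq_zero_iff] at hx
  exact (ZMod.unitOfCoprime _ (((Fact.out : p.Prime).coprime_iff_not_dvd.2 hx).symm.pow_right N)).isUnit

theorem natCast_isUnit [Fact p.Prime] {n : ℕ} (hn : ¬ p ∣ n) : IsUnit (n : ZMod (p ^ N)) :=
  (ZMod.unitOfCoprime n (((Fact.out : p.Prime).coprime_iff_not_dvd.2 hn).symm.pow_right N)).isUnit

/-- A representation over `ZMod p` of a group of order prime to `p` lifts to `ZMod (p ^ N)`. -/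
theorem exists_lift [Fact p.Prime] (hN : N ≠ 0) {G : Type*} [Group G] [Finite G] (hG : ¬ p ∣ Nat.card G)
    (ρ : G →* Matrix (Fin d) (Fin d) (ZMod p)) :
    ∃ T : G →* Matrix (Fin d) (Fin d) (ZMod (p ^ N)), ∀ g, (redHom p N hN).mapMatrix (T g) = ρ g := by
  classical
  haveI : NeZero (p ^ N) := ⟨pow_ne_zero N (Fact.out : p.Prime).ne_zero⟩
  let r : (Matrix (Fin d) (Fin d) (ZMod (p ^ N)))ˣ →* (Matrix (Fin d) (Fin d) (ZMod p))ˣ :=
    Units.map (redHom p N hN).mapMatrix.toMonoidHom
  let K : Subgroup (G × (Matrix (Fin d) (Fin d) (ZMod (p ^ N)))ˣ) :=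
    (r.comp (MonoidHom.snd _ _)).eqLocus (ρ.toHomUnits.comp (MonoidHom.fst _ _))
  let π : K →* G := (MonoidHom.fst _ _).comp K.subtype
  have hπ : Function.Surjective π := by
    intro g
    obtain ⟨A, hA⟩ : ∃ A : Matrix (Fin d) (Fin d) (ZMod (p ^ N)), (redHom p N hN).mapMatrix A = ρ g :=
      ⟨(ρ g).map fun x => ((x.val : ℕ) : ZMod (p ^ N)), by
        ext i j
        simp [redHom]⟩
    have hu : IsUnit A := by
      rw [Matrix.isUnit_iff_isUnit_det]
      refine isUnit_of_redHom hN ?_
      rw [RingHom.map_det, hA]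
      exact IsUnit.ne_zero ((Matrix.isUnit_iff_isUnit_det _).1 (ρ.toHomUnits g).isUnit)
    exact ⟨⟨(g, hu.unit), Units.ext hA⟩, rfl⟩
  have hker : IsPGroup p π.ker := by
    rintro ⟨⟨⟨g, A⟩, hA⟩, hk⟩
    obtain rfl : g = 1 := hk
    have hA1 : r A = 1 := hA.trans (map_one ρ.toHomUnits)
    have hA1' : (redHom p N hN).mapMatrix (A : Matrix (Fin d) (Fin d) (ZMod (p ^ N))) = 1 :=
      congrArg Units.val hA1
    have hdiv : ∀ k, ∃ Z : Matrix (Fin d) (Fin d) (ZMod (p ^ N)),
        (A : Matrix (Fin d) (Fin d) (ZMod (p ^ N))) ^ (p ^ k) - 1 = (p : ZMod (p ^ N)) ^ (k + 1) • Z := by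
      intro k
      induction k with
      | zero =>
        have h : ∀ i j, (p : ZMod (p ^ N)) ∣ ((A : Matrix (Fin d) (Fin d) (ZMod (p ^ N))) - 1) i j := fun i j => by
          rw [← redHom_eq_zero hN]
          have := congrFun (congrFun (show (redHom p N hN).mapMatrix ((A : Matrix (Fin d) (Fin d) (ZMod (p ^ N))) - 1) = 0 by
            rw [map_sub, hA1', map_one, sub_self]) i) j
          exact this
        choose Z hZ using h
        refine ⟨Matrix.of Z, ?_⟩
        ext i j
        rw [pow_zero, pow_one, zero_add, pow_one, Matrix.smul_apply, smul_eq_mul, Matrix.of_apply, hZ i j]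
      | succ k ih =>
        obtain ⟨Z, hZ⟩ := ih
        set B := (A : Matrix (Fin d) (Fin d) (ZMod (p ^ N))) ^ (p ^ k) with hB
        have hBr : (redHom p N hN).mapMatrix B = 1 := by rw [hB, map_pow, hA1', one_pow]
        have hgeo := geom_sum_mul B p
        have hS : ∀ i j, (p : ZMod (p ^ N)) ∣ (∑ t ∈ Finset.range p, B ^ t) i j := fun i j => by
          rw [← redHom_eq_zero hN]
          have h0 : (redHom p N hN).mapMatrix (∑ t ∈ Finset.range p, B ^ t) = 0 := by
            rw [map_sum]; simp only [map_pow, hBr, one_pow, Finset.sum_const, Finset.card_range]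
            rw [nsmul_eq_mul, ← map_natCast (Matrix.scalar (Fin d)) p, ZMod.natCast_self, map_zero, zero_mul]
          exact congrFun (congrFun h0 i) j
        choose Y hY using hS
        refine ⟨Matrix.of Y * Z, ?_⟩
        rw [pow_succ p k, pow_mul, ← hB, ← hgeo, hZ,
          show (∑ t ∈ Finset.range p, B ^ t) = (p : ZMod (p ^ N)) • (Matrix.of Y) by ext i j; rw [Matrix.smul_apply, smul_eq_mul, Matrix.of_apply, hY i j],
          Matrix.smul_mul, Matrix.mul_smul, smul_smul, ← pow_succ']
    refine ⟨N, Subtype.ext (Subtype.ext (Prod.ext (one_pow _) (Units.ext ?_)))⟩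
    obtain ⟨Z, hZ⟩ := hdiv N
    rw [pow_succ, ← Nat.cast_pow, ZMod.natCast_self, zero_mul, zero_smul, sub_eq_zero] at hZ
    simpa using hZ
  obtain ⟨C, hC⟩ := Subgroup.exists_right_complement'_of_coprime (N := π.ker) (by
    obtain ⟨k, hk⟩ := IsPGroup.iff_card.1 hker
    rw [hk, Subgroup.index_ker, MonoidHom.range_eq_top.2 hπ, Subgroup.card_top]
    exact ((Fact.out : p.Prime).coprime_iff_not_dvd.2 hG).pow_left k)
  have hbij : Function.Bijective (π.comp C.subtype) := by
    refine ⟨(injective_iff_map_eq_one _).2 fun c hc => Subtype.ext ?_, fun g => ?_⟩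
    · exact hC.disjoint.le_bot ⟨hc, c.2⟩
    · obtain ⟨x, rfl⟩ := hπ g
      obtain ⟨⟨⟨n, hn⟩, c⟩, hnc⟩ := hC.2 x
      exact ⟨c, by rw [← hnc]; simp [MonoidHom.mem_ker.1 hn]⟩
  let e := MulEquiv.ofBijective _ hbij
  refine ⟨(Units.coeHom _).comp (((MonoidHom.snd _ _).comp (K.subtype.comp C.subtype)).comp e.symm.toMonoidHom),
    fun g => ?_⟩
  have h1 := congrArg Units.val ((e.symm g : K).2 : r _ = ρ.toHomUnits _)
  have h2 : ((e.symm g : K) : G × (Matrix (Fin d) (Fin d) (ZMod (p ^ N)))ˣ).1 = g := e.apply_symm_apply g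
  refine h1.trans ?_
  exact congrArg (fun z => ρ z) h2

theorem idempotent_rank [Fact p.Prime] (hN : N ≠ 0) (Q : Matrix (Fin d) (Fin d) (ZMod (p ^ N))) (hQ : Q * Q = Q) :
    ∃ r : ℕ, Q.trace = r ∧
      Nat.card {v : Fin d → ZMod p // ((redHom p N hN).mapMatrix Q) *ᵥ v = v} = p ^ r := by
  classical
  haveI : NeZero (p ^ N) := ⟨pow_ne_zero N (Fact.out : p.Prime).ne_zero⟩
  haveI : Nontrivial (ZMod (p ^ N)) :=
    ZMod.nontrivial_iff.2 (Nat.one_lt_pow hN (Fact.out : p.Prime).one_lt).ne'
  haveI : IsLocalRing (ZMod (p ^ N)) := IsLocalRing.of_nonunits_add fun {a b} ha hb hab => by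
    have ha' : redHom p N hN a = 0 := by_contra fun h => ha (isUnit_of_redHom hN h)
    have hb' : redHom p N hN b = 0 := by_contra fun h => hb (isUnit_of_redHom hN h)
    exact (hab.map (redHom p N hN)).ne_zero (by rw [map_add, ha', hb', add_zero])
  set f := Matrix.toLin' Q with hf
  have hff : ∀ x, f (f x) = f x := fun x => by
    rw [hf, Matrix.toLin'_apply, Matrix.toLin'_apply, Matrix.mulVec_mulVec, hQ]
  have hproj : LinearMap.IsProj (LinearMap.range f) f :=
    ⟨fun x => LinearMap.mem_range_self f x, fun x hx => by obtain ⟨y, rfl⟩ := hx; exact hff y⟩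
  haveI h1 : Module.Projective (ZMod (p ^ N)) (LinearMap.range f) :=
    Module.Projective.of_split (LinearMap.range f).subtype f.rangeRestrict
      (LinearMap.ext fun x => Subtype.ext (hproj.map_id _ x.2))
  haveI h2 : Module.Projective (ZMod (p ^ N)) (LinearMap.ker f) :=
    Module.Projective.of_split (LinearMap.ker f).subtype
      ((LinearMap.id - f).codRestrict (LinearMap.ker f) fun x => by simp [hff])
      (LinearMap.ext fun x => Subtype.ext (by simp [LinearMap.mem_ker.1 x.2]))
  haveI : Module.Free (ZMod (p ^ N)) (LinearMap.range f) := Module.free_of_flat_of_isLocalRing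
  haveI : Module.Free (ZMod (p ^ N)) (LinearMap.ker f) := Module.free_of_flat_of_isLocalRing
  set r := Module.finrank (ZMod (p ^ N)) (LinearMap.range f) with hr
  refine ⟨r, ?_, ?_⟩
  · rw [← Matrix.trace_toLin'_eq]
    exact hproj.trace
  let b := Module.finBasis (ZMod (p ^ N)) (LinearMap.range f)
  let red : (Fin d → ZMod (p ^ N)) → (Fin d → ZMod p) := fun v i => redHom p N hN (v i)
  have hmul : ∀ v, red (f v) = ((redHom p N hN).mapMatrix Q) *ᵥ red v := fun v => by
    funext i
    exact RingHom.map_mulVec (redHom p N hN) Q v i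
  let lift : ZMod p → ZMod (p ^ N) := fun x => ((x.val : ℕ) : ZMod (p ^ N))
  have hlift : ∀ x, redHom p N hN (lift x) = x := fun x => by simp [lift]
  let Φ : (Fin r → ZMod p) → {v : Fin d → ZMod p // ((redHom p N hN).mapMatrix Q) *ᵥ v = v} := fun a =>
    ⟨red ((b.equivFun.symm fun i => lift (a i) : LinearMap.range f) : Fin d → ZMod (p ^ N)), by
      rw [← hmul, hproj.map_id _ (b.equivFun.symm fun i => lift (a i)).2]⟩
  have hΦ : Function.Bijective Φ := by
    have key : ∀ c : Fin r → ZMod (p ^ N),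
        red ((b.equivFun.symm c : LinearMap.range f) : Fin d → ZMod (p ^ N)) = 0 → ∀ i, redHom p N hN (c i) = 0 := by
      intro c hc
      have h : ∀ j, (p : ZMod (p ^ N)) ∣ ((b.equivFun.symm c : LinearMap.range f) : Fin d → ZMod (p ^ N)) j :=
        fun j => (redHom_eq_zero hN _).1 (congrFun hc j)
      choose w hw using h
      have heq : b.equivFun.symm c = (p : ZMod (p ^ N)) • f.rangeRestrict w := Subtype.ext (by
        show ((b.equivFun.symm c : LinearMap.range f) : Fin d → ZMod (p ^ N)) = (p : ZMod (p ^ N)) • f w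
        rw [← map_smul, ← hproj.map_id _ (b.equivFun.symm c).2]
        exact congrArg f (funext hw))
      intro i
      have h1 := congrArg (fun z => b.equivFun z i) heq
      simp only [LinearEquiv.apply_symm_apply, map_smul, Pi.smul_apply, smul_eq_mul] at h1
      rw [h1, map_mul, map_natCast, ZMod.natCast_self, zero_mul]
    constructor
    · intro a a' h
      funext i
      have h0 : red ((b.equivFun.symm ((fun i => lift (a i)) - fun i => lift (a' i)) : LinearMap.range f) :
          Fin d → ZMod (p ^ N)) = 0 := by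
        funext j
        have := congrFun (congrArg Subtype.val h) j
        simp only [Φ, red] at this
        simp only [red, map_sub, AddSubgroupClass.coe_sub, Pi.sub_apply, Pi.zero_apply]
        exact sub_eq_zero.2 this
      have := key _ h0 i
      simp only [Pi.sub_apply, map_sub, hlift, sub_eq_zero] at this
      exact this
    · rintro ⟨v, hv⟩
      refine ⟨fun i => redHom p N hN (b.equivFun (f.rangeRestrict fun j => lift (v j)) i), Subtype.ext ?_⟩
      set c := b.equivFun (f.rangeRestrict fun j => lift (v j)) with hc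
      have h1 : red ((b.equivFun.symm c : LinearMap.range f) : Fin d → ZMod (p ^ N)) = v := by
        rw [hc, LinearEquiv.symm_apply_apply]
        show red (f _) = v
        rw [hmul, show red (fun j => lift (v j)) = v from funext fun j => hlift _]
        exact hv
      refine (funext fun j => ?_).trans h1
      simp only [Φ, red, Module.Basis.equivFun_symm_apply, Submodule.coe_sum, SetLike.val_smul,
        Finset.sum_apply, Pi.smul_apply, smul_eq_mul, map_sum, map_mul, hlift]
  rw [← Nat.card_congr (Equiv.ofBijective Φ hΦ), Nat.card_fun, Nat.card_zmod, Nat.card_eq_fintype_card,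
    Fintype.card_fin]

/-- A sum over a Frobenius group of a class function. -/
theorem sum_frobenius {G : Type*} [Group G] [Fintype G] (U E : Subgroup G) [U.Normal] [Fintype U] [Fintype E]
    (hinf : U ⊓ E = ⊥) (hsup : U ⊔ E = ⊤) (hfpf : ∀ e ∈ E, e ≠ 1 → ∀ u ∈ U, e * u = u * e → u = 1)
    {R : Type*} [CommRing R] (f : G → R) (hf : ∀ g x, f (g * x * g⁻¹) = f x) :
    ∑ g : G, f g + (Nat.card U : R) * f 1 = ∑ u : U, f u + (Nat.card U : R) * ∑ x : E, f x := by
  classical
  have hcard : Nat.card G = Nat.card U * Nat.card E :=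
    (Subgroup.IsComplement'.card_mul (Subgroup.isComplement'_of_disjoint_and_mul_eq_univ
      (disjoint_iff.2 hinf) (by rw [← Subgroup.normal_mul, hsup, Subgroup.coe_top]))).symm
  let ψ : U ⊕ U × {x : E // x ≠ 1} → G :=
    Sum.elim (fun u => (u : G)) fun t => (t.1 : G) * ((t.2 : E) : G) * (t.1 : G)⁻¹
  have hout : ∀ (u : U) (x : {x : E // x ≠ 1}), (u : G) * ((x : E) : G) * (u : G)⁻¹ ∉ U := fun u x h => x.2 (by
    have h1 : ((x : E) : G) ∈ U := by
      have := U.mul_mem (U.mul_mem (U.inv_mem u.2) h) u.2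
      simpa [mul_assoc] using this
    exact Subtype.ext (Subgroup.mem_bot.1 (hinf ▸ Subgroup.mem_inf.2 ⟨h1, (x : E).2⟩)))
  have hψ : Function.Bijective ψ := by
    rw [Fintype.bijective_iff_injective_and_card]
    refine ⟨?_, ?_⟩
    · rintro (u | ⟨u, x⟩) (v | ⟨v, y⟩) h
      · exact congrArg Sum.inl (Subtype.ext h)
      · have h' : (u : G) = (v : G) * ((y : E) : G) * (v : G)⁻¹ := h
        exact absurd (h' ▸ u.2) (hout v y)
      · have h' : (u : G) * ((x : E) : G) * (u : G)⁻¹ = (v : G) := h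
        exact absurd (h'.symm ▸ v.2) (hout u x)
      · have h' : (u : G) * ((x : E) : G) * (u : G)⁻¹ = (v : G) * ((y : E) : G) * (v : G)⁻¹ := h
        have hw : ((v : G)⁻¹ * u) * ((x : E) : G) = ((y : E) : G) * ((v : G)⁻¹ * u) := by
          have := congrArg (fun z => (v : G)⁻¹ * z * u) h'
          simpa [mul_assoc] using this
        have hwU : (v : G)⁻¹ * u ∈ U := U.mul_mem (U.inv_mem v.2) u.2
        have hxy : x = y := by
          have h1 : ((y : E) : G)⁻¹ * ((x : E) : G) =
              (((y : E) : G)⁻¹ * ((v : G)⁻¹ * u)⁻¹ * ((y : E) : G)) * ((v : G)⁻¹ * u) := by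
            rw [mul_assoc _ ((y : E) : G), ← hw]; group
          have h2 : ((y : E) : G)⁻¹ * ((x : E) : G) ∈ U ⊓ E := ⟨by
            rw [h1]
            refine U.mul_mem ?_ hwU
            simpa using (inferInstance : U.Normal).conj_mem _ (U.inv_mem hwU) ((y : E) : G)⁻¹,
            E.mul_mem (E.inv_mem (y : E).2) (x : E).2⟩
          rw [hinf, Subgroup.mem_bot, inv_mul_eq_one] at h2
          exact Subtype.ext (Subtype.ext h2.symm)
        subst hxy
        have h3 := hfpf ((x : E) : G) (x : E).2 (fun he => x.2 (Subtype.ext he)) _ hwU hw.symm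
        rw [inv_mul_eq_one] at h3
        rw [show u = v from Subtype.ext h3.symm]
    · rw [Fintype.card_sum, Fintype.card_prod, Fintype.card_subtype_compl, Fintype.card_subtype_eq,
        ← Nat.card_eq_fintype_card, ← Nat.card_eq_fintype_card, ← Nat.card_eq_fintype_card, hcard]
      have : 0 < Nat.card E := Nat.card_pos
      rw [Nat.mul_sub, mul_one, Nat.add_sub_cancel' (Nat.le_mul_of_pos_right _ this)]
  rw [← Fintype.sum_bijective ψ hψ (fun t => f (ψ t)) f (fun _ => rfl), Fintype.sum_sum_type, Fintype.sum_prod_type]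
  simp only [ψ, Sum.elim_inl, Sum.elim_inr, hf, Finset.sum_const, Finset.card_univ, nsmul_eq_mul,
    ← Nat.card_eq_fintype_card]
  rw [← Finset.sum_subtype (Finset.univ.erase (1 : E)) (by simp) (fun x : E => f x),
    ← Finset.add_sum_erase Finset.univ (fun x : E => f x) (Finset.mem_univ 1), Subgroup.coe_one]
  ring

theorem fixed_formula [Fact p.Prime] {G : Type*} [Group G] [Finite G] (hG : ¬ p ∣ Nat.card G) (U E : Subgroup G)
    [U.Normal] (hinf : U ⊓ E = ⊥) (hsup : U ⊔ E = ⊤)
    (hfpf : ∀ e ∈ E, e ≠ 1 → ∀ u ∈ U, e * u = u * e → u = 1) (ρ : G →* Matrix (Fin d) (Fin d) (ZMod p)) :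
    Nat.card {v : Fin d → ZMod p // ∀ g ∈ (⊤ : Subgroup G), ρ g *ᵥ v = v} ^ Nat.card E * p ^ d =
      Nat.card {v : Fin d → ZMod p // ∀ g ∈ E, ρ g *ᵥ v = v} ^ Nat.card E *
        Nat.card {v : Fin d → ZMod p // ∀ g ∈ U, ρ g *ᵥ v = v} := by
  classical
  haveI := Fintype.ofFinite G
  haveI : Fintype U := Fintype.ofFinite _
  haveI : Fintype E := Fintype.ofFinite _
  have hcard : Nat.card G = Nat.card U * Nat.card E :=
    (Subgroup.IsComplement'.card_mul (Subgroup.isComplement'_of_disjoint_and_mul_eq_univ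
      (disjoint_iff.2 hinf) (by rw [← Subgroup.normal_mul, hsup, Subgroup.coe_top]))).symm
  obtain ⟨N, hNdef⟩ : ∃ N : ℕ, N = (Nat.card E + 1) * d + 1 := ⟨_, rfl⟩
  have hN : N ≠ 0 := by omega
  obtain ⟨T, hT⟩ := exists_lift hN hG ρ
  have key : ∀ S : Subgroup G, ∃ r, r ≤ d ∧ Nat.card {v : Fin d → ZMod p // ∀ g ∈ S, ρ g *ᵥ v = v} = p ^ r ∧
      ∀ [Fintype S], ∑ s : S, (T s).trace = (Nat.card S : ZMod (p ^ N)) * r := by
    intro S
    letI : Fintype S := Fintype.ofFinite _
    have hS : ¬ p ∣ Nat.card S := fun h => hG (h.trans S.card_subgroup_dvd_card)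
    obtain ⟨i, hi⟩ := (natCast_isUnit (N := N) hS).exists_left_inv
    set Sm : Matrix (Fin d) (Fin d) (ZMod (p ^ N)) := ∑ s : S, T s with hSm
    have habs : ∀ s : S, T s * Sm = Sm := fun s => by
      rw [hSm, Finset.mul_sum]
      exact Fintype.sum_equiv (Equiv.mulLeft s) _ _ fun x => by simp [map_mul]
    have hsq : Sm * Sm = (Nat.card S : ZMod (p ^ N)) • Sm := by
      nth_rewrite 1 [hSm]
      rw [Finset.sum_mul, Finset.sum_congr rfl (fun s _ => habs s), Finset.sum_const, Finset.card_univ,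
        ← Nat.card_eq_fintype_card, Nat.cast_smul_eq_nsmul]
    obtain ⟨r, htr, hfix⟩ := idempotent_rank hN (i • Sm) (by
      rw [Matrix.smul_mul, Matrix.mul_smul, hsq, smul_smul, smul_smul, mul_assoc, hi, mul_one])
    have hset : Nat.card {v : Fin d → ZMod p // ∀ g ∈ S, ρ g *ᵥ v = v} = p ^ r := by
      rw [← hfix]
      refine Nat.card_congr (Equiv.subtypeEquivRight fun v => ?_)
      have hred : (redHom p N hN).mapMatrix (i • Sm) = redHom p N hN i • ∑ s : S, ρ s := by
        rw [show (redHom p N hN).mapMatrix (i • Sm) = redHom p N hN i • (redHom p N hN).mapMatrix Sm by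
          ext a b; simp, hSm, map_sum]
        exact congrArg _ (Finset.sum_congr rfl fun s _ => hT s)
      have hi' : redHom p N hN i * (Nat.card S : ZMod p) = 1 := by
        rw [← map_natCast (redHom p N hN), ← map_mul, hi, map_one]
      rw [hred, Matrix.smul_mulVec, Matrix.sum_mulVec]
      constructor
      · intro h
        rw [Finset.sum_congr rfl (fun (s : S) _ => h s s.2), Finset.sum_const, Finset.card_univ,
          ← Nat.card_eq_fintype_card, ← Nat.cast_smul_eq_nsmul (ZMod p), smul_smul, hi', one_smul]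
      · intro h g hg
        conv_lhs => rw [← h]
        rw [Matrix.mulVec_smul, Matrix.mulVec_sum]
        conv_rhs => rw [← h]
        congr 1
        exact Fintype.sum_equiv (Equiv.mulLeft (⟨g, hg⟩ : S)) _ _ fun x => by
          simp [map_mul, Matrix.mulVec_mulVec]
    refine ⟨r, ?_, hset, fun {inst} => ?_⟩
    · have h1 : p ^ r ≤ p ^ d := by
        rw [← hset]
        refine (Nat.card_le_card_of_injective _ Subtype.val_injective).trans ?_
        rw [Nat.card_fun, Nat.card_zmod, Nat.card_eq_fintype_card, Fintype.card_fin]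
      exact (Nat.pow_le_pow_iff_right (Fact.out : p.Prime).one_lt).1 h1
    · rw [Subsingleton.elim inst (Fintype.ofFinite _), ← Matrix.trace_sum, ← hSm, ← htr, Matrix.trace_smul,
        smul_eq_mul, ← mul_assoc, mul_comm (Nat.card S : ZMod (p ^ N)), hi, one_mul]
  obtain ⟨a, ha, hca, hta⟩ := key ⊤
  obtain ⟨b, hb, hcb, htb⟩ := key U
  obtain ⟨c, hc, hcc, htc⟩ := key E
  rw [hca, hcb, hcc, ← pow_mul, ← pow_mul, ← pow_add, ← pow_add]
  have htop : ∑ g : G, (T g).trace = (Nat.card G : ZMod (p ^ N)) * a := by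
    rw [← Fintype.sum_equiv (Subgroup.topEquiv (G := G)).toEquiv (fun s : (⊤ : Subgroup G) => (T s).trace)
      (fun g => (T g).trace) (fun _ => rfl), hta, Subgroup.card_top]
  have hsum := sum_frobenius U E hinf hsup hfpf (fun g => (T g).trace) fun g x => by
    simp only [map_mul]
    rw [Matrix.trace_mul_cycle, ← map_mul, ← map_mul, inv_mul_cancel, one_mul]
  rw [htop, htb, htc, map_one, Matrix.trace_one, Fintype.card_fin, hcard, Nat.cast_mul] at hsum
  have hu : IsUnit (Nat.card U : ZMod (p ^ N)) :=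
    natCast_isUnit fun h => hG (h.trans U.card_subgroup_dvd_card)
  have hmod : ((a * Nat.card E + d : ℕ) : ZMod (p ^ N)) = ((c * Nat.card E + b : ℕ) : ZMod (p ^ N)) := by
    refine hu.mul_left_cancel ?_
    push_cast
    linear_combination hsum
  rw [ZMod.natCast_eq_natCast_iff'] at hmod
  have hlt : (Nat.card E + 1) * d < p ^ N :=
    (Nat.lt_succ_self _).trans (hNdef ▸ Nat.lt_pow_self (Fact.out : p.Prime).one_lt)
  rw [Nat.mod_eq_of_lt (lt_of_le_of_lt (by nlinarith) hlt),
    Nat.mod_eq_of_lt (lt_of_le_of_lt (by nlinarith) hlt)] at hmod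
  rw [hmod]

end CfsgLib.WielandtFP
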